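import Cfsg.Agent.Lib.Helper37.Mult.Tab

set_option autoImplicit false
set_option maxRecDepth 100000

namespace Cfsg.Agent.Lib.Helper37.Mult

open Cfsg.Agent.Lib.Helper37.J3 Cfsg.Agent.Lib.Helper37.Inv Cfsg.Agent.Lib.Helper37.Out

theorem cS : allFrom chkS 0 24 = true := by decide +kernel
theorem cE1 : allFrom chkE1 0 16 = true := by decide +kernel
theorem cMul : allFrom (all2 chkMul 16) 0 16 = true := by decide +kernel
theorem cC : allFrom chkC 0 16 = true := by decide +kernel
theorem cNu : allFrom (all2 chkNu 16) 0 16 = true := by decide +kernel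
theorem cTau : allFrom chkTau 0 16 = true := by decide +kernel
theorem cInd : allFrom (all2 chkInd 3) 0 3 = true := by decide +kernel
theorem c3 : chk3 = true := by decide +kernel
theorem c8 : chk8 = true := by decide +kernel
theorem cO : chkO = true := by decide +kernel

end Cfsg.Agent.Lib.Helper37.Mult
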