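import Cfsg.Agent.Lib.Helper37.Out.Glue
import Cfsg.Agent.Lib.Helper37.Mult.C0

/-!
# The `J₃` data for the Schur multiplier (helper37)

Group-level statements read off from the kernel-checked matrix certificates of `Mult.C0`:
the 2-local tables (`two_data`), the Sylow 3 relations (`three_data`), elements of orders 5, 17, 19
(`order_data`).
-/

set_option autoImplicit false
open scoped commutatorElement

namespace Cfsg.Agent.Lib.Helper37.Mult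

open Cfsg.Spor Subgroup Cfsg.Agent.Lib.Helper37.J3 Cfsg.Agent.Lib.Helper37.Inv
  Cfsg.Agent.Lib.Helper37.Out

/-- the action of the element of order 3 on `E₁` -/
noncomputable def gamF (i : Fin 16) : Fin 16 := ⟨gamN i.val % 16, Nat.mod_lt _ (by norm_num)⟩
noncomputable def tauF (i : Fin 16) : Fin 16 := ⟨tauN i.val % 16, Nat.mod_lt _ (by norm_num)⟩
noncomputable def nuF (j i : Fin 16) : Fin 16 :=
  ⟨nuN j.val i.val % 16, Nat.mod_lt _ (by norm_num)⟩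

theorem fpf_ok : ∀ i : Fin 16, i ^^^ gamF i ^^^ gamF (gamF i) = 0 := by decide +kernel

theorem Z_ok : ∀ i : Fin 16, (∃ j, nuF j i ≠ i) ∨ (∃ k l, i = k ^^^ nuF l k) := by
  decide +kernel

theorem Zc_ok : (Finset.univ.filter (fun i : Fin 16 => ∀ j, nuF j i = i)).card ≤ 4 := by
  decide +kernel

theorem xor_val16 : ∀ i j : Fin 16, (i ^^^ j).val = Nat.xor i.val j.val := by decide

theorem pow5_eq {G : Type*} [Group G] (y : G) : y ^ 5 = y * ((y * y) * (y * y)) := by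
  simp only [pow_succ, pow_zero, one_mul, mul_assoc]

theorem pow3_eq {G : Type*} [Group G] (y : G) : y ^ 3 = y * (y * y) := by
  simp only [pow_succ, pow_zero, one_mul, mul_assoc]

section

variable {F : Type*} [Field F] {ω : F} (h2 : (2 : F) = 0) (hω : ω * ω = ω + 1)

include h2 hω in
theorem RepJ.eq_sc {x y : J3 F ω} {M M' : M9} (hx : RepJ ω x M) (hy : RepJ ω y M')
    (h : scEq M M' = true) : x = y := by
  unfold scEq at h
  simp only [Bool.or_eq_true] at h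
  rcases h with (h | h) | h
  · exact RepJ.eq (RepJ.congr hx (M9.eq_of_beq h).symm) hy
  · exact RepJ.eq (RepJ.congr (RepJ.smul h2 hω hx 2 (by norm_num) (by norm_num))
      (M9.eq_of_beq h).symm) hy
  · exact RepJ.eq (RepJ.congr (RepJ.smul h2 hω hx 3 (by norm_num) (by norm_num))
      (M9.eq_of_beq h).symm) hy

include h2 hω in
theorem exists_m : ∃ m : ℕ → J3 F ω, ∀ k < 24, RepJ ω (m k) (MC k) := by
  have h : ∀ k, ∃ x : J3 F ω, k < 24 → RepJ ω x (MC k) := by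
    intro k
    by_cases hk : k < 24
    · obtain ⟨x, hx⟩ := RepJ.of_sift (F := F) (ω := ω) h2 hω _ _
        (allFrom_sound _ _ _ cS k (Nat.zero_le _) (by omega))
      exact ⟨x, fun _ => hx⟩
    · exact ⟨1, fun h => absurd h hk⟩
  choose m hm using h
  exact ⟨m, hm⟩

include h2 hω in
theorem RepJ.pw {x : J3 F ω} {M : M9} (hx : RepJ ω x M) (i : ℕ) (hi : i < 3) :
    RepJ ω (x ^ i) (pw M i) := by
  interval_cases i
  · rw [pow_zero]; exact RepJ.one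
  · rw [pow_one]; exact hx
  · rw [pow_two]; exact RepJ.mul h2 hω hx hx

include h2 hω in
/-- the 2-local data: an elementary abelian `E₁ = {e i}` of order 16, `c` of order 3 and an
involution `x` -/
theorem two_data (hF4 : ∀ c : F, c = 0 ∨ c = 1 ∨ c = ω ∨ c = ω + 1) :
    ∃ (e : Fin 16 → J3 F ω) (c x : J3 F ω),
      (∀ i, e i = 1 → i = 0) ∧
      (∀ i j, e i * e j = e (i ^^^ j)) ∧
      c * c * c = 1 ∧
      (∀ i, c * e i * c⁻¹ = e (gamF i)) ∧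
      (∀ i, (x * x) * e i * (x * x)⁻¹ = e i) ∧
      (∀ j i, (x * e j * x⁻¹) * e i * (x * e j * x⁻¹)⁻¹ = e (nuF j i)) ∧
      x * x = e 0 * (x * e 0 * x⁻¹) ∧
      (∀ j, c * (x * e j * x⁻¹) * c⁻¹ * (x * e j * x⁻¹)⁻¹ = e (tauF j)) := by
  obtain ⟨m, hm⟩ := exists_m (F := F) (ω := ω) h2 hω
  have hO := cO
  unfold chkO at hO
  simp only [Bool.and_eq_true] at hO
  obtain ⟨⟨⟨⟨⟨⟨o1, o2⟩, o3⟩, -⟩, -⟩, -⟩, -⟩ := hO
  have hE : ∀ i : Fin 16, RepJ ω (m i.val) (MC i.val) := fun i => hm _ (by omega)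
  have hc := hm 16 (by norm_num)
  have hx := hm 17 (by norm_num)
  have hxx : m 17 * m 17 = 1 := RepJ.eq_sc h2 hω (RepJ.mul h2 hω hx hx) RepJ.one o2
  have xinv : (m 17)⁻¹ = m 17 := inv_eq_of_mul_eq_one_right hxx
  have e0 : m 0 = 1 := RepJ.eq (RepJ.congr (hm 0 (by norm_num)) (M9.eq_of_beq o3)) RepJ.one
  have hF : ∀ j : Fin 16, RepJ ω (m 17 * m j.val * m 17) (FJ j.val) := by
    intro j
    rw [mul_assoc]
    exact RepJ.mul h2 hω hx (RepJ.mul h2 hω (hE j) hx)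
  refine ⟨fun i => m i.val, m 16, m 17, ?_, ?_, ?_, ?_, ?_, ?_, ?_, ?_⟩
  · intro i h
    have h' : m i.val = 1 := h
    have hs := RepJ.scal h2 hω hF4 (RepJ.one (F := F) (ω := ω)) (h' ▸ hE i)
    have hc1 := allFrom_sound _ _ _ cE1 i.val (Nat.zero_le _) (by omega)
    unfold chkE1 at hc1
    rw [hs] at hc1
    simp only [Bool.not_true, Bool.false_or] at hc1
    exact Fin.ext (Nat.eq_of_beq_eq_true hc1)
  · intro i j
    have hc1 := all2_sound _ _ _ _ cMul i.val (Nat.zero_le _) (by omega) j.val j.isLt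
    unfold chkMul at hc1
    have hij : RepJ ω (m (i ^^^ j).val) (MC (Nat.xor i.val j.val)) :=
      RepJ.congr (hE (i ^^^ j)) (congrArg MC (xor_val16 i j))
    exact RepJ.eq_sc h2 hω (RepJ.mul h2 hω (hE i) (hE j)) hij hc1
  · have e : m 16 * (m 16 * m 16) = 1 :=
      RepJ.eq_sc h2 hω (RepJ.mul h2 hω hc (RepJ.mul h2 hω hc hc)) RepJ.one o1
    rw [mul_assoc]; exact e
  · intro i
    have hc1 := allFrom_sound _ _ _ cC i.val (Nat.zero_le _) (by omega)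
    unfold chkC at hc1
    simp only [Bool.and_eq_true] at hc1
    have hg : (gamF i).val = gamN i.val := Nat.mod_eq_of_lt (blt_true hc1.2)
    have hEg := hE (gamF i)
    rw [hg] at hEg
    have key : m 16 * m i.val = m (gamF i).val * m 16 := by
      rw [hg]
      exact RepJ.eq_sc h2 hω (RepJ.mul h2 hω hc (hE i)) (RepJ.mul h2 hω hEg hc) hc1.1
    show m 16 * m i.val * (m 16)⁻¹ = m (gamF i).val
    rw [key, mul_inv_cancel_right]
  · intro i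
    rw [hxx, one_mul, inv_one, mul_one]
  · intro j i
    have hc1 := all2_sound _ _ _ _ cNu j.val (Nat.zero_le _) (by omega) i.val i.isLt
    unfold chkNu at hc1
    simp only [Bool.and_eq_true] at hc1
    have hg : (nuF j i).val = nuN j.val i.val := Nat.mod_eq_of_lt (blt_true hc1.2)
    have hEg := hE (nuF j i)
    rw [hg] at hEg
    have key : (m 17 * m j.val * m 17) * m i.val = m (nuF j i).val * (m 17 * m j.val * m 17) := by
      rw [hg]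
      exact RepJ.eq_sc h2 hω (RepJ.mul h2 hω (hF j) (hE i)) (RepJ.mul h2 hω hEg (hF j)) hc1.1
    show (m 17 * m j.val * (m 17)⁻¹) * m i.val * (m 17 * m j.val * (m 17)⁻¹)⁻¹ = m (nuF j i).val
    rw [xinv, key, mul_inv_cancel_right]
  · show m 17 * m 17 = m 0 * (m 17 * m 0 * (m 17)⁻¹)
    rw [e0, hxx, one_mul, mul_one, mul_inv_cancel]
  · intro j
    have hc1 := allFrom_sound _ _ _ cTau j.val (Nat.zero_le _) (by omega)
    unfold chkTau at hc1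
    simp only [Bool.and_eq_true] at hc1
    have hg : (tauF j).val = tauN j.val := Nat.mod_eq_of_lt (blt_true hc1.2)
    have hEg := hE (tauF j)
    rw [hg] at hEg
    have key : m 16 * (m 17 * m j.val * m 17) =
        m (tauF j).val * ((m 17 * m j.val * m 17) * m 16) := by
      rw [hg]
      exact RepJ.eq_sc h2 hω (RepJ.mul h2 hω hc (hF j))
        (RepJ.mul h2 hω hEg (RepJ.mul h2 hω (hF j) hc)) hc1.1
    show m 16 * (m 17 * m j.val * (m 17)⁻¹) * (m 16)⁻¹ * (m 17 * m j.val * (m 17)⁻¹)⁻¹ =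
      m (tauF j).val
    rw [xinv, key]
    group

include h2 hω in
/-- the Sylow 3 data: generators `x, y` of a Sylow 3-subgroup, `a = ⁅x, y⁆`, the central elements
`t₁ = ⁅x, a⁆`, `t₂ = ⁅y, a⁆`, and an element `c` of order 8 normalising it -/
theorem three_data (hF4 : ∀ c : F, c = 0 ∨ c = 1 ∨ c = ω ∨ c = ω + 1) :
    ∃ (x y c a t₁ t₂ : J3 F ω), a = ⁅x, y⁆ ∧ t₁ = ⁅x, a⁆ ∧ t₂ = ⁅y, a⁆ ∧
      x * t₁ = t₁ * x ∧ y * t₁ = t₁ * y ∧ x * t₂ = t₂ * x ∧ y * t₂ = t₂ * y ∧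
      x ^ 3 = a ^ 0 * t₁ ^ 0 * t₂ ^ 2 ∧ y ^ 3 = a ^ 0 * t₁ ^ 1 * t₂ ^ 0 ∧
      a ^ 3 = 1 ∧ t₁ ^ 3 = 1 ∧ t₂ ^ 3 = 1 ∧
      (∀ i j k : ℕ, i < 3 → j < 3 → k < 3 → a ^ i * t₁ ^ j * t₂ ^ k = 1 →
        i = 0 ∧ j = 0 ∧ k = 0) ∧
      c * x * c⁻¹ = x * y ^ 2 * (a ^ 2 * t₁ ^ 1 * t₂ ^ 2) ∧
      c * y * c⁻¹ = x * y * (a ^ 0 * t₁ ^ 0 * t₂ ^ 1) ∧
      c * a * c⁻¹ = a⁻¹ * (t₁ ^ 0 * t₂ ^ 0) ∧
      c * t₁ * c⁻¹ = t₁ ^ 2 * t₂ ∧ c * t₂ * c⁻¹ = t₁ ^ 2 * t₂ ^ 2 := by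
  obtain ⟨m, hm⟩ := exists_m (F := F) (ω := ω) h2 hω
  have h3 := c3
  unfold chk3 at h3
  simp only [Bool.and_eq_true] at h3
  obtain ⟨⟨⟨⟨⟨⟨⟨⟨⟨⟨⟨i1, i2⟩, r1⟩, r2⟩, r3⟩, r4⟩, rx3⟩, ry3⟩, ra3⟩, rt13⟩, rt23⟩, rai⟩ := h3
  have h8 := c8
  unfold chk8 at h8
  simp only [Bool.and_eq_true] at h8
  obtain ⟨⟨⟨⟨q1, q2⟩, q3⟩, q4⟩, q5⟩ := h8
  have hx := hm 18 (by norm_num)
  have hy := hm 19 (by norm_num)
  have hc := hm 20 (by norm_num)
  have hxi := hm 21 (by norm_num)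
  have hyi := hm 22 (by norm_num)
  have exi : m 21 = (m 18)⁻¹ := eq_inv_of_mul_eq_one_right
    (RepJ.eq (RepJ.congr (RepJ.mul h2 hω hx hxi) (M9.eq_of_beq i1)) RepJ.one)
  have eyi : m 22 = (m 19)⁻¹ := eq_inv_of_mul_eq_one_right
    (RepJ.eq (RepJ.congr (RepJ.mul h2 hω hy hyi) (M9.eq_of_beq i2)) RepJ.one)
  rw [exi] at hxi
  rw [eyi] at hyi
  -- a and its inverse
  have hA : RepJ ω ⁅m 18, m 19⁆ A3 := by
    have e : ⁅m 18, m 19⁆ = (m 18 * m 19) * ((m 18)⁻¹ * (m 19)⁻¹) := by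
      rw [commutatorElement_def]; simp only [mul_assoc]
    rw [e]
    exact RepJ.mul h2 hω (RepJ.mul h2 hω hx hy) (RepJ.mul h2 hω hxi hyi)
  have hAi0 : RepJ ω ((m 19 * m 18) * ((m 19)⁻¹ * (m 18)⁻¹)) A3i :=
    RepJ.mul h2 hω (RepJ.mul h2 hω hy hx) (RepJ.mul h2 hω hyi hxi)
  have eai : (m 19 * m 18) * ((m 19)⁻¹ * (m 18)⁻¹) = ⁅m 18, m 19⁆⁻¹ := eq_inv_of_mul_eq_one_right
    (RepJ.eq_sc h2 hω (RepJ.mul h2 hω hA hAi0) RepJ.one rai)
  have hAi : RepJ ω ⁅m 18, m 19⁆⁻¹ A3i := eai ▸ hAi0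
  have hT1 : RepJ ω ⁅m 18, ⁅m 18, m 19⁆⁆ T1 := by
    have e : ⁅m 18, ⁅m 18, m 19⁆⁆ = (m 18 * ⁅m 18, m 19⁆) * ((m 18)⁻¹ * ⁅m 18, m 19⁆⁻¹) := by
      rw [commutatorElement_def (m 18) ⁅m 18, m 19⁆]; simp only [mul_assoc]
    rw [e]
    exact RepJ.mul h2 hω (RepJ.mul h2 hω hx hA) (RepJ.mul h2 hω hxi hAi)
  have hT2 : RepJ ω ⁅m 19, ⁅m 18, m 19⁆⁆ T2 := by
    have e : ⁅m 19, ⁅m 18, m 19⁆⁆ = (m 19 * ⁅m 18, m 19⁆) * ((m 19)⁻¹ * ⁅m 18, m 19⁆⁻¹) := by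
      rw [commutatorElement_def (m 19) ⁅m 18, m 19⁆]; simp only [mul_assoc]
    rw [e]
    exact RepJ.mul h2 hω (RepJ.mul h2 hω hy hA) (RepJ.mul h2 hω hyi hAi)
  generalize ha : ⁅m 18, m 19⁆ = a at hA hAi hT1 hT2
  generalize ht1 : ⁅m 18, a⁆ = t₁ at hT1
  generalize ht2 : ⁅m 19, a⁆ = t₂ at hT2
  have hm1 : ∀ {x y : J3 F ω} {M N : M9}, RepJ ω x M → RepJ ω y N → RepJ ω (x * y) (mm M N) :=
    fun hx hy => RepJ.mul h2 hω hx hy
  refine ⟨m 18, m 19, m 20, a, t₁, t₂, ha.symm, ht1.symm, ht2.symm, ?_, ?_, ?_, ?_, ?_, ?_, ?_, ?_, ?_,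
    ?_, ?_, ?_, ?_, ?_, ?_⟩
  · exact RepJ.eq_sc h2 hω (hm1 hx hT1) (hm1 hT1 hx) r1
  · exact RepJ.eq_sc h2 hω (hm1 hy hT1) (hm1 hT1 hy) r2
  · exact RepJ.eq_sc h2 hω (hm1 hx hT2) (hm1 hT2 hx) r3
  · exact RepJ.eq_sc h2 hω (hm1 hy hT2) (hm1 hT2 hy) r4
  · rw [pow3_eq, pow_zero, pow_zero, one_mul, one_mul, pow_two]
    exact RepJ.eq_sc h2 hω (hm1 hx (hm1 hx hx)) (hm1 hT2 hT2) rx3
  · rw [pow3_eq, pow_zero, pow_zero, one_mul, mul_one, pow_one]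
    exact RepJ.eq_sc h2 hω (hm1 hy (hm1 hy hy)) hT1 ry3
  · rw [pow3_eq]
    exact RepJ.eq_sc h2 hω (hm1 hA (hm1 hA hA)) RepJ.one ra3
  · rw [pow3_eq]
    exact RepJ.eq_sc h2 hω (hm1 hT1 (hm1 hT1 hT1)) RepJ.one rt13
  · rw [pow3_eq]
    exact RepJ.eq_sc h2 hω (hm1 hT2 (hm1 hT2 hT2)) RepJ.one rt23
  · intro i j k hi hj hk h1
    have hrep : RepJ ω (a ^ i * t₁ ^ j * t₂ ^ k) (mm (mm (pw A3 i) (pw T1 j)) (pw T2 k)) :=
      hm1 (hm1 (RepJ.pw h2 hω hA i hi) (RepJ.pw h2 hω hT1 j hj)) (RepJ.pw h2 hω hT2 k hk)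
    have hs := RepJ.scal h2 hω hF4 (RepJ.one (F := F) (ω := ω)) (h1 ▸ hrep)
    have hc1 := all2_sound _ _ _ _ cInd i (Nat.zero_le _) (by omega) j hj
    unfold chkInd at hc1
    simp only [Bool.and_eq_true] at hc1
    obtain ⟨⟨k0, k1⟩, k2⟩ := hc1
    interval_cases k
    · rw [hs] at k0
      simp only [Bool.not_true, Bool.false_or, Bool.and_eq_true] at k0
      exact ⟨Nat.eq_of_beq_eq_true k0.1, Nat.eq_of_beq_eq_true k0.2, rfl⟩
    · rw [hs] at k1; exact absurd k1 (by simp)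
    · rw [hs] at k2; exact absurd k2 (by simp)
  · have key : m 20 * m 18 = (m 18 * (m 19 * m 19)) * ((a * a * t₁) * (t₂ * t₂)) * m 20 :=
      RepJ.eq_sc h2 hω (hm1 hc hx)
        (hm1 (hm1 (hm1 hx (hm1 hy hy)) (hm1 (hm1 (hm1 hA hA) hT1) (hm1 hT2 hT2))) hc) q1
    rw [key, mul_inv_cancel_right, pow_two, pow_two, pow_two, pow_one]
  · have key : m 20 * m 19 = ((m 18 * m 19) * t₂) * m 20 :=
      RepJ.eq_sc h2 hω (hm1 hc hy) (hm1 (hm1 (hm1 hx hy) hT2) hc) q2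
    rw [key, mul_inv_cancel_right, pow_zero, pow_zero, one_mul, one_mul, pow_one]
  · have key : m 20 * a = a⁻¹ * m 20 := RepJ.eq_sc h2 hω (hm1 hc hA) (hm1 hAi hc) q3
    rw [key, mul_inv_cancel_right, pow_zero, pow_zero, one_mul, mul_one]
  · have key : m 20 * t₁ = ((t₁ * t₁) * t₂) * m 20 :=
      RepJ.eq_sc h2 hω (hm1 hc hT1) (hm1 (hm1 (hm1 hT1 hT1) hT2) hc) q4
    rw [key, mul_inv_cancel_right, pow_two]
  · have key : m 20 * t₂ = ((t₁ * t₁) * (t₂ * t₂)) * m 20 :=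
      RepJ.eq_sc h2 hω (hm1 hc hT2) (hm1 (hm1 (hm1 hT1 hT1) (hm1 hT2 hT2)) hc) q5
    rw [key, mul_inv_cancel_right, pow_two, pow_two]

include h2 hω in
/-- elements of orders 5, 17, 19 -/
theorem order_data (hF4 : ∀ c : F, c = 0 ∨ c = 1 ∨ c = ω ∨ c = ω + 1) :
    ∃ g₅ g₁₇ g₁₉ : J3 F ω, orderOf g₅ = 5 ∧ orderOf g₁₇ = 17 ∧ orderOf g₁₉ = 19 := by
  obtain ⟨m, hm⟩ := exists_m (F := F) (ω := ω) h2 hω
  have hO := cO
  unfold chkO at hO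
  simp only [Bool.and_eq_true] at hO
  obtain ⟨⟨⟨⟨⟨⟨-, -⟩, -⟩, o4⟩, o5⟩, o6⟩, o7⟩ := hO
  obtain ⟨-, -, -, -, -, -, -, -, -, -, -, -, h17, h19⟩ := out_data h2 hω hF4
  have hg := hm 23 (by norm_num)
  have ht := tJ_rep (F := F) (ω := ω) h2 hω
  have hb := bJ_rep (F := F) (ω := ω) h2 hω
  haveI : Fact (Nat.Prime 5) := ⟨by norm_num⟩
  haveI : Fact (Nat.Prime 17) := ⟨by norm_num⟩
  haveI : Fact (Nat.Prime 19) := ⟨by norm_num⟩
  refine ⟨m 23, tJ h2 hω * bJ h2 hω,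
    tJ h2 hω * bJ h2 hω * tJ h2 hω * bJ h2 hω * tJ h2 hω * (bJ h2 hω)⁻¹, ?_, ?_, ?_⟩
  · apply orderOf_eq_prime
    · rw [pow5_eq]
      exact RepJ.eq_sc h2 hω
        (RepJ.mul h2 hω hg (RepJ.mul h2 hω (RepJ.mul h2 hω hg hg) (RepJ.mul h2 hω hg hg)))
        RepJ.one o4
    · intro h1
      have hs := RepJ.scal h2 hω hF4 (RepJ.one (F := F) (ω := ω)) (h1 ▸ hg)
      rw [hs] at o5
      exact absurd o5 (by simp)
  · apply orderOf_eq_prime h17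
    intro h1
    have hs := RepJ.scal h2 hω hF4 (RepJ.one (F := F) (ω := ω)) (h1 ▸ RepJ.mul h2 hω ht hb)
    rw [hs] at o6
    exact absurd o6 (by simp)
  · apply orderOf_eq_prime h19
    intro h1
    have hs := RepJ.scal h2 hω hF4 (RepJ.one (F := F) (ω := ω)) (h1 ▸ RepJ.w3 h2 hω ht)
    rw [hs] at o7
    exact absurd o7 (by simp)

end

end Cfsg.Agent.Lib.Helper37.Mult
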