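import Cfsg.Agent.Lib.Helper37.Out.Glue

/-!
# `3·J₃ → J₃` is a stem extension with kernel of order 3 (helper37)
-/

set_option autoImplicit false
open scoped commutatorElement

namespace Cfsg.Agent.Lib.Helper37.Mult

open Cfsg.Spor Subgroup Cfsg.Agent.Lib.Helper37.J3 Cfsg.Agent.Lib.Helper37.Inv
  Cfsg.Agent.Lib.Helper37.Out

section

variable {F : Type*} [Field F] {ω : F} (h2 : (2 : F) = 0) (hω : ω * ω = ω + 1)

include h2 hω in
theorem stem_low (hF4 : ∀ c : F, c = 0 ∨ c = 1 ∨ c = ω ∨ c = ω + 1) :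
    Cfsg.IsStemExtension (QuotientGroup.mk' (center (threeJ3 F ω))) ∧
      Nat.card (QuotientGroup.mk' (center (threeJ3 F ω))).ker = 3 := by
  have hker : (QuotientGroup.mk' (center (threeJ3 F ω))).ker = center (threeJ3 F ω) :=
    QuotientGroup.ker_mk' _
  have hcard := card_center h2 hω hF4
  have hzR : J3.Rep ω (zetaG h2 hω) OMcode := mkGL_rep h2 hω _ _ _ _
  have hzc : (⟨zetaG h2 hω, zetaG_mem h2 hω⟩ : threeJ3 F ω) ∈ center (threeJ3 F ω) :=
    (center_iff h2 hω _).mpr ⟨ω, zetaG_val h2 hω⟩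
  have hs := (PA_spec 1 (by norm_num)).1
  unfold sftOK at hs
  simp only [Bool.and_eq_true] at hs
  obtain ⟨⟨s1, s2⟩, s3⟩ := hs
  obtain ⟨g0, hg0, hg0R⟩ :=
    J3.exists_of_sift h2 hω _ _ _ (blt_true s2) (blt_true s3) (M9.eq_of_beq s1)
  have key : g0 * bG h2 hω * g0⁻¹ = zetaG h2 hω * bG h2 hω :=
    Rep.unique (rep_conj h2 hω hg0R (bG_rep h2 hω) (M9.eq_of_beq zcomm))
      (Rep.mul h2 hω hzR (bG_rep h2 hω))
  have hcomm : (⟨zetaG h2 hω, zetaG_mem h2 hω⟩ : threeJ3 F ω) =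
      ⁅(⟨g0, hg0⟩ : threeJ3 F ω), ⟨bG h2 hω, bG_mem h2 hω⟩⁆ := by
    apply Subtype.ext
    show zetaG h2 hω = g0 * bG h2 hω * g0⁻¹ * (bG h2 hω)⁻¹
    rw [key, mul_inv_cancel_right]
  have hzcomm : (⟨zetaG h2 hω, zetaG_mem h2 hω⟩ : threeJ3 F ω) ∈ commutator (threeJ3 F ω) := by
    rw [hcomm]
    exact Subgroup.commutator_mem_commutator (Subgroup.mem_top _) (Subgroup.mem_top _)
  have hz1 : (⟨zetaG h2 hω, zetaG_mem h2 hω⟩ : threeJ3 F ω) ≠ 1 := by
    intro h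
    have h' : zetaG h2 hω = 1 := congrArg Subtype.val h
    have hv := zetaG_val h2 hω
    rw [h'] at hv
    have h00 := congrFun (congrFun hv 0) 0
    simp only [Units.val_one, Matrix.one_apply_eq, Matrix.smul_apply, smul_eq_mul, mul_one] at h00
    exact om_ne_one h2 hω h00.symm
  have : Fact (Nat.Prime 3) := ⟨Nat.prime_three⟩
  refine ⟨⟨QuotientGroup.mk'_surjective _, hker.le, ?_⟩, ?_⟩
  · rw [hker]
    intro g hg
    have hgen := zpowers_eq_top_of_prime_card (G := center (threeJ3 F ω)) hcard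
      (g := ⟨_, hzc⟩) (fun h => hz1 (congrArg Subtype.val h))
    have hmem : (⟨g, hg⟩ : center (threeJ3 F ω)) ∈ Subgroup.zpowers ⟨_, hzc⟩ := by
      rw [hgen]; exact Subgroup.mem_top _
    obtain ⟨k, hk⟩ := Subgroup.mem_zpowers_iff.mp hmem
    have hgk : g = (⟨zetaG h2 hω, zetaG_mem h2 hω⟩ : threeJ3 F ω) ^ k := by
      have h' := congrArg Subtype.val hk
      exact h'.symm
    rw [hgk]
    exact Subgroup.zpow_mem _ hzcomm k
  · rw [hker]; exact hcard

end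

end Cfsg.Agent.Lib.Helper37.Mult
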