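import Cfsg.Agent.Lib.Helper37.Mult.Glue
import Cfsg.Agent.Lib.Helper37.Mult.Low
import Cfsg.Agent.Lib.Helper57.J3MASM2
import Cfsg.Agent.Lib.Helper63.J3MIDX3
import Cfsg.Agent.Lib.Helper90.J3MMAIN3
import Cfsg.Agent.Lib.Helper70.SchurLocal
import Cfsg.Agent.Lib.Helper70.StemTools

/-!
# The Schur multiplier of `J₃` is cyclic of order 3 (helper37)

Lower bound: `3·J₃ → J₃` is a stem extension (`Mult.Low`). Upper bound, for a finite stem extension
`σ : Γ → J₃` and `z ∈ ker σ`: the order of `z` divides `|J₃|` (transfer to the kernel); it is prime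
to 5, 17, 19 (cyclic Sylow subgroups), prime to 2 (`two_part`: one class of involutions, an
elementary abelian `2⁴` with an element of order 3 acting fixed-point-freely, and a Sylow
2-subgroup `E₁E₂⟨x⟩`), and the 3-part of the kernel inside the commutator subgroup of the preimage
of a Sylow 3-subgroup is generated by one element of order 3 (`three_part`, using an element of
order 8 normalising the Sylow 3-subgroup).
-/

set_option autoImplicit false
open scoped commutatorElement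

universe u v

namespace Cfsg.Agent.Lib.Helper37.Mult

open Cfsg.Spor Subgroup Cfsg.Agent.Lib.Helper37.J3 Cfsg.Agent.Lib.Helper37.Inv
  Cfsg.Agent.Lib.Helper37.Out
open Cfsg.Agent.Lib.Helper63.J3MIDX3 Cfsg.Agent.Lib.Helper57.J3MASM2 Cfsg.Agent.Lib.Helper90.J3MMAIN3

section

variable {F : Type*} [Field F] {ω : F} (h2 : (2 : F) = 0) (hω : ω * ω = ω + 1)

theorem prime_dvd_card {ℓ : ℕ} (hℓ : ℓ.Prime) (h : ℓ ∣ 50232960) :
    ℓ = 2 ∨ ℓ = 3 ∨ ℓ = 5 ∨ ℓ = 17 ∨ ℓ = 19 := by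
  have e : 50232960 = 2 ^ 7 * (3 ^ 5 * (5 * (17 * 19))) := by norm_num
  rw [e] at h
  rcases (Nat.Prime.dvd_mul hℓ).mp h with h | h
  · exact Or.inl ((Nat.prime_dvd_prime_iff_eq hℓ Nat.prime_two).mp (hℓ.dvd_of_dvd_pow h))
  rcases (Nat.Prime.dvd_mul hℓ).mp h with h | h
  · exact Or.inr (Or.inl ((Nat.prime_dvd_prime_iff_eq hℓ Nat.prime_three).mp (hℓ.dvd_of_dvd_pow h)))
  rcases (Nat.Prime.dvd_mul hℓ).mp h with h | h
  · exact Or.inr (Or.inr (Or.inl ((Nat.prime_dvd_prime_iff_eq hℓ (by norm_num)).mp h)))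
  rcases (Nat.Prime.dvd_mul hℓ).mp h with h | h
  · exact Or.inr (Or.inr (Or.inr (Or.inl ((Nat.prime_dvd_prime_iff_eq hℓ (by norm_num)).mp h))))
  · exact Or.inr (Or.inr (Or.inr (Or.inr ((Nat.prime_dvd_prime_iff_eq hℓ (by norm_num)).mp h))))

/-- a cyclic subgroup of prime order `ℓ`, `ℓ²` not dividing the group order, kills the `ℓ`-part of
the kernel -/
theorem not_dvd_of_cyclic {Γ : Type u} {G : Type v} [Group Γ] [Group G] [Finite G] (σ : Γ →* G)
    (hσ : Cfsg.IsStemExtension σ) (g : G) (ℓ n : ℕ) (hg : orderOf g = ℓ)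
    (hG : Nat.card G = n * ℓ) (hn : ¬ ℓ ∣ n) {z : Γ} (hz : z ∈ σ.ker) : ¬ ℓ ∣ orderOf z := by
  intro hdvd
  have h1 := Cfsg.Agent.Lib.Helper70.pow_index_mem_commutator_comap σ hσ.1 hσ.2.1 hσ.2.2
    (Subgroup.zpowers g) hz
  rw [Cfsg.Agent.Lib.Helper70.commutator_comap_eq_bot_of_isCyclic σ hσ.2.1 (Subgroup.zpowers g),
    Subgroup.mem_bot] at h1
  have h2 : orderOf z ∣ (Subgroup.zpowers g).index := orderOf_dvd_of_pow_eq_one h1
  have h3 : Nat.card (Subgroup.zpowers g) = ℓ := by rw [Nat.card_zpowers, hg]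
  have h4 := Subgroup.card_mul_index (Subgroup.zpowers g)
  rw [h3, hG] at h4
  have hℓ0 : 0 < ℓ := by
    rcases Nat.eq_zero_or_pos ℓ with h0 | h0
    · rw [h0, Nat.mul_zero] at hG
      exact absurd hG (Nat.card_pos (α := G)).ne'
    · exact h0
  have h5 : (Subgroup.zpowers g).index = n := by
    rw [Nat.mul_comm] at h4
    exact Nat.eq_of_mul_eq_mul_right hℓ0 h4
  rw [h5] at h2
  exact hn (hdvd.trans h2)

include h2 hω in
/-- the Schur multiplier of `J₃` is cyclic of order 3 -/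
theorem main (hF4 : ∀ c : F, c = 0 ∨ c = 1 ∨ c = ω ∨ c = ω + 1) :
    Cfsg.HasSchurMultiplier (J3 F ω) (Multiplicative (ZMod 3)) := by
  have hJ := card_J3 h2 hω hF4
  haveI : Finite (J3 F ω) := Nat.finite_of_card_ne_zero (by rw [hJ]; norm_num)
  haveI : Finite (threeJ3 F ω) :=
    Nat.finite_of_card_ne_zero (by rw [card_threeJ3 h2 hω]; norm_num)
  obtain ⟨hst, hk3⟩ := stem_low h2 hω hF4
  have hp3 : Fact (Nat.Prime 3) := ⟨Nat.prime_three⟩
  refine ⟨⟨threeJ3 F ω, inferInstance, inferInstance, QuotientGroup.mk' (center (threeJ3 F ω)), hst,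
    ⟨mulEquivOfPrimeCardEq (p := 3) hk3 (by simp)⟩⟩, ?_⟩
  intro Γ _ _ σ hσ
  -- the data
  obtain ⟨x, y, c, a, t₁, t₂, ha, ht1, ht2, r1, r2, r3, r4, rx3, ry3, ra3, rt13, rt23, rind, rcx,
    rcy, rca, rct1, rct2⟩ := three_data h2 hω hF4
  obtain ⟨e, c₂, x₂, he1, hmul, hc3, hc, hx2, hν, hxx, hτ⟩ := two_data h2 hω hF4
  obtain ⟨g₅, g₁₇, g₁₉, o5, o17, o19⟩ := order_data h2 hω hF4
  obtain ⟨hC, hconj⟩ := cent_facts h2 hω hF4
  -- the prime 3
  obtain ⟨κ, hκ3, hκ⟩ := three_part σ hσ.1 hσ.2.1 x y c a t₁ t₂ ha ht1 ht2 r1 r2 r3 r4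
    ⟨0, 0, 2, rx3⟩ ⟨0, 1, 0, ry3⟩ ra3 rt13 rt23 rind ⟨2, 1, 2, rcx⟩ ⟨0, 0, 1, rcy⟩ ⟨0, 0, rca⟩
    rct1 rct2
  have hP : Nat.card ↥(Subgroup.closure ({x, y} : Set (J3 F ω))) = 243 :=
    card_closure_pair x y a t₁ t₂ ha ht1 ht2 r1 r2 r3 r4
      ⟨0, 0, 2, rx3⟩ ⟨0, 1, 0, ry3⟩ ra3 rt13 rt23 rind
  have hPi : (Subgroup.closure ({x, y} : Set (J3 F ω))).index = 206720 := by
    have h4 := Subgroup.card_mul_index (Subgroup.closure ({x, y} : Set (J3 F ω)))
    rw [hP, hJ] at h4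
    omega
  -- the prime 2
  have hinv : ∀ g h : J3 F ω, g ≠ 1 → g * g = 1 → h ≠ 1 → h * h = 1 → ∃ k : J3 F ω, k * g * k⁻¹ = h := by
    intro g h hg1 hg2 hh1 hh2
    haveI : Fact (Nat.Prime 2) := ⟨Nat.prime_two⟩
    have og : orderOf g = 2 := orderOf_eq_prime (by rw [pow_two]; exact hg2) hg1
    have oh : orderOf h = 2 := orderOf_eq_prime (by rw [pow_two]; exact hh2) hh1
    have hgh : IsConj g h := (hconj g og).symm.trans (hconj h oh)
    exact isConj_iff.mp hgh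
  have h2part : ¬ 2 ∣ Nat.card σ.ker :=
    two_part σ hσ 392445 (by rw [hJ]; norm_num) (by norm_num) hinv e c₂ x₂ gamF id tauF nuF 0 0
      he1 hmul hc3 hc fpf_ok hx2 hν hxx hτ Z_ok Zc_ok
  -- conclusion
  apply Cfsg.Agent.Lib.Helper70.surj_of_le_zpowers σ.ker κ 3 ?_ hκ3
  intro z hz
  have hzG : z ^ Nat.card (J3 F ω) = 1 := by
    have h1 := Cfsg.Agent.Lib.Helper70.pow_index_mem_commutator_comap σ hσ.1 hσ.2.1 hσ.2.2
      (⊥ : Subgroup (J3 F ω)) hz
    rw [Subgroup.index_bot] at h1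
    have hab : ⁅(⊥ : Subgroup (J3 F ω)).comap σ, (⊥ : Subgroup (J3 F ω)).comap σ⁆ = ⊥ := by
      rw [Subgroup.commutator_eq_bot_iff_le_centralizer]
      intro u hu
      rw [Subgroup.mem_centralizer_iff]
      intro w _
      have huk : u ∈ σ.ker := by
        rw [MonoidHom.mem_ker]; exact Subgroup.mem_bot.mp (Subgroup.mem_comap.mp hu)
      exact Subgroup.mem_center_iff.mp (hσ.2.1 huk) w
    rw [hab, Subgroup.mem_bot] at h1
    exact h1
  have hdvd : orderOf z ∣ 50232960 := by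
    rw [← hJ]; exact orderOf_dvd_of_pow_eq_one hzG
  have h3pow : ∃ k : ℕ, orderOf z = 3 ^ k := by
    have hne : orderOf z ≠ 0 := by
      intro h0; rw [h0] at hdvd; norm_num at hdvd
    refine ⟨_, Nat.eq_prime_pow_of_unique_prime_dvd hne ?_⟩
    intro ℓ hℓ hℓz
    rcases prime_dvd_card hℓ (hℓz.trans hdvd) with rfl | rfl | rfl | rfl | rfl
    · exfalso
      apply h2part
      have h1 : orderOf (⟨z, hz⟩ : σ.ker) ∣ Nat.card σ.ker := orderOf_dvd_natCard _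
      rw [Subgroup.orderOf_mk] at h1
      exact hℓz.trans h1
    · rfl
    · exact absurd hℓz (not_dvd_of_cyclic σ hσ g₅ 5 10046592 o5 (by rw [hJ]) (by norm_num) hz)
    · exact absurd hℓz (not_dvd_of_cyclic σ hσ g₁₇ 17 2954880 o17 (by rw [hJ]) (by norm_num) hz)
    · exact absurd hℓz (not_dvd_of_cyclic σ hσ g₁₉ 19 2643840 o19 (by rw [hJ]) (by norm_num) hz)
  obtain ⟨k, hk⟩ := h3pow
  have h1 := Cfsg.Agent.Lib.Helper70.pow_index_mem_commutator_comap σ hσ.1 hσ.2.1 hσ.2.2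
    (Subgroup.closure ({x, y} : Set (J3 F ω))) hz
  rw [hPi] at h1
  have h2' : z ^ 206720 ∈ Subgroup.zpowers κ := by
    apply hκ _ h1 (Subgroup.pow_mem _ hz _)
    refine ⟨k, ?_⟩
    rw [← pow_mul, mul_comm, pow_mul, ← hk, pow_orderOf_eq_one, one_pow]
  have hcop : Nat.Coprime 206720 (orderOf z) := by
    rw [hk]
    exact Nat.Coprime.pow_right k (by norm_num)
  obtain ⟨m, hm⟩ := exists_pow_eq_self_of_coprime hcop
  rw [← hm]
  exact Subgroup.pow_mem _ h2' m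

end

end Cfsg.Agent.Lib.Helper37.Mult
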